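import Mathlib
import Cfsg.Agent.H173.PiBS.Small

/-!
# S3876: the group `A₈` (helper173)

* `W A B` : the permutations of `A × B` compatible with the first projection, `card_W`;
* `alt_eight (h : DT π A₈) : 2 ∈ π → 3 ∈ π → 5 ∈ π ∧ 7 ∈ π`.
-/

set_option autoImplicit false

namespace Cfsg.Agent.H173.PiBS

open Subgroup Cfsg Cfsg.Agent.H841.PiBS Equiv

section W

variable (A B : Type) [Fintype A] [DecidableEq A] [Fintype B] [DecidableEq B]

/-- the permutations compatible with the first projection -/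
def W : Subgroup (Perm (A × B)) where
  carrier := {σ | ∃ τ : Perm A, ∀ x, (σ x).1 = τ x.1}
  one_mem' := ⟨1, fun x => rfl⟩
  mul_mem' := by
    rintro σ σ' ⟨τ, h⟩ ⟨τ', h'⟩
    refine ⟨τ * τ', fun x => ?_⟩
    rw [Perm.mul_apply, h, h', Perm.mul_apply]
  inv_mem' := by
    rintro σ ⟨τ, h⟩
    refine ⟨τ⁻¹, fun x => ?_⟩
    have h1 := h (σ⁻¹ x)
    have h2 : σ (σ⁻¹ x) = x := σ.apply_symm_apply x
    rw [h2] at h1
    rw [h1]
    exact (τ.symm_apply_apply _).symm

variable {A B}

/-- the element of `W` -/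
def elW (p : (A → Perm B) × Perm A) : Perm (A × B) where
  toFun x := (p.2 x.1, p.1 x.1 x.2)
  invFun x := (p.2⁻¹ x.1, (p.1 (p.2⁻¹ x.1))⁻¹ x.2)
  left_inv x := by simp
  right_inv x := by simp

variable (A B)

theorem card_W [Nonempty B] : Nat.card (W A B) = (Fintype.card B).factorial ^ Fintype.card A * (Fintype.card A).factorial := by
  classical
  have h1 : Function.Bijective (fun p : (A → Perm B) × Perm A => (⟨elW p, p.2, fun x => rfl⟩ : W A B)) := by
    constructor
    · rintro ⟨f, τ⟩ ⟨f', τ'⟩ h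
      have h2 : ∀ x : A × B, (τ x.1, f x.1 x.2) = (τ' x.1, f' x.1 x.2) := fun x =>
        congrArg (fun w : W A B => (w : Perm (A × B)) x) h
      have h3 : τ = τ' := by
        ext a
        obtain ⟨b⟩ := ‹Nonempty B›
        exact (Prod.ext_iff.1 (h2 (a, b))).1
      have h4 : f = f' := by
        funext a
        ext b
        exact (Prod.ext_iff.1 (h2 (a, b))).2
      rw [h3, h4]
    · rintro ⟨σ, τ, h⟩
      have hinj : ∀ a : A, Function.Injective (fun b : B => (σ (a, b)).2) := by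
        intro a b b' hb
        have h2 : σ (a, b) = σ (a, b') := Prod.ext (by rw [h, h]) hb
        exact (Prod.ext_iff.1 (σ.injective h2)).2
      refine ⟨(fun a => Equiv.ofBijective _ (Finite.injective_iff_bijective.1 (hinj a)), τ), ?_⟩
      apply Subtype.ext
      ext x
      · exact (h x).symm
      · rfl
  rw [← Nat.card_congr (Equiv.ofBijective _ h1), Nat.card_prod, Nat.card_perm, Nat.card_eq_fintype_card,
    Nat.card_eq_fintype_card, Fintype.card_pi]
  congr 1
  simp [Fintype.card_perm]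

end W

/-- the even part of a subgroup with an odd element -/
theorem card_even {α : Type*} [Fintype α] [DecidableEq α] [Nontrivial α] {W : Subgroup (Perm α)} {w : Perm α}
    (hw : w ∈ W) (ho : Perm.sign w ≠ 1) : 2 * Nat.card (W.subgroupOf (alternatingGroup α)) = Nat.card W := by
  have h1 : (alternatingGroup α).relIndex W ∣ 2 := by
    rw [← alternatingGroup.index_eq_two (α := α)]
    exact relIndex_dvd_index_of_normal _ _
  have h2 : (alternatingGroup α).relIndex W ≠ 1 := by
    intro h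
    rw [relIndex_eq_one] at h
    exact ho (Perm.mem_alternatingGroup.1 (h hw))
  have h3 : (alternatingGroup α).relIndex W = 2 := by
    rcases (Nat.dvd_prime Nat.prime_two).1 h1 with h | h
    · exact absurd h h2
    · exact h
  have h4 := card_mul_index ((alternatingGroup α).subgroupOf W)
  have h5 : ((alternatingGroup α).subgroupOf W).index = 2 := h3
  have h6 : Nat.card ((alternatingGroup α).subgroupOf W) = Nat.card (W.subgroupOf (alternatingGroup α)) := by
    rw [← inf_subgroupOf_right, ← inf_subgroupOf_right W, Nat.card_congr (subgroupOfEquivOfLe inf_le_right).toEquiv,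
      Nat.card_congr (subgroupOfEquivOfLe inf_le_right).toEquiv, inf_comm]
  rw [h5, h6] at h4
  omega

abbrev A8 := alternatingGroup (Fin 8)

theorem card_A8 : Nat.card A8 = 20160 := by
  rw [nat_card_alternatingGroup, Nat.card_fin]; rfl

/-- the coordinates -/
def e4 : Fin 2 × Fin 4 ≃ Fin 8 := finProdFinEquiv
def e2 : Fin 4 × Fin 2 ≃ Fin 8 := finProdFinEquiv

/-- two blocks of 4 points -/
def WA : Subgroup (Perm (Fin 8)) := (W (Fin 2) (Fin 4)).map e4.permCongrHom.toMonoidHom
/-- four blocks of 2 points -/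
def WB : Subgroup (Perm (Fin 8)) := (W (Fin 4) (Fin 2)).map e2.permCongrHom.toMonoidHom

theorem card_WA : Nat.card WA = 1152 := by
  rw [WA, card_map_of_injective e4.permCongrHom.injective, card_W]; rfl

theorem card_WB : Nat.card WB = 384 := by
  rw [WB, card_map_of_injective e2.permCongrHom.injective, card_W]; rfl

theorem mem_WA {σ : Perm (Fin 8)} : σ ∈ WA ↔ ∃ τ : Perm (Fin 2), ∀ x, (e4.symm (σ x)).1 = τ (e4.symm x).1 := by
  constructor
  · rintro ⟨ρ, ⟨τ, h⟩, rfl⟩
    refine ⟨τ, fun x => ?_⟩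
    have := h (e4.symm x)
    rw [← this]
    congr 1
    exact e4.symm_apply_apply _
  · rintro ⟨τ, h⟩
    refine ⟨e4.permCongrHom.symm σ, ⟨τ, fun x => ?_⟩, e4.permCongrHom.apply_symm_apply σ⟩
    have := h (e4 x)
    rw [e4.symm_apply_apply] at this
    exact this

theorem mem_WB {σ : Perm (Fin 8)} : σ ∈ WB ↔ ∃ τ : Perm (Fin 4), ∀ x, (e2.symm (σ x)).1 = τ (e2.symm x).1 := by
  constructor
  · rintro ⟨ρ, ⟨τ, h⟩, rfl⟩
    refine ⟨τ, fun x => ?_⟩
    have := h (e2.symm x)
    rw [← this]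
    congr 1
    exact e2.symm_apply_apply _
  · rintro ⟨τ, h⟩
    refine ⟨e2.permCongrHom.symm σ, ⟨τ, fun x => ?_⟩, e2.permCongrHom.apply_symm_apply σ⟩
    have := h (e2 x)
    rw [e2.symm_apply_apply] at this
    exact this

/-- the elements of `W B` -/
def x1 : Perm (Fin 8) := ⟨![2, 3, 4, 5, 0, 1, 6, 7], ![4, 5, 0, 1, 2, 3, 6, 7], by decide, by decide⟩
def x2 : Perm (Fin 8) := ⟨![0, 1, 4, 5, 6, 7, 2, 3], ![0, 1, 6, 7, 2, 3, 4, 5], by decide, by decide⟩
def y1 : Perm (Fin 8) := ⟨![1, 0, 3, 2, 4, 5, 6, 7], ![1, 0, 3, 2, 4, 5, 6, 7], by decide, by decide⟩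
def s1 : Perm (Fin 8) := swap 0 1

theorem mem_s1_WA : s1 ∈ WA := mem_WA.2 ⟨1, by decide⟩
theorem mem_s1_WB : s1 ∈ WB := mem_WB.2 ⟨1, by decide⟩
theorem mem_x1 : x1 ∈ WB := mem_WB.2 ⟨⟨![1, 2, 0, 3], ![2, 0, 1, 3], by decide, by decide⟩, by decide⟩
theorem mem_x2 : x2 ∈ WB := mem_WB.2 ⟨⟨![0, 2, 3, 1], ![0, 3, 1, 2], by decide, by decide⟩, by decide⟩
theorem mem_y1 : y1 ∈ WB := mem_WB.2 ⟨1, by decide⟩
theorem even_x1 : x1 ∈ A8 := Perm.mem_alternatingGroup.2 (by decide)
theorem even_x2 : x2 ∈ A8 := Perm.mem_alternatingGroup.2 (by decide)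
theorem even_y1 : y1 ∈ A8 := Perm.mem_alternatingGroup.2 (by decide)

theorem const_of : ∀ c : Fin 8 → Fin 2, (∃ τ : Perm (Fin 2), ∀ i, c (x1 i) = τ (c i)) →
    (∃ τ : Perm (Fin 2), ∀ i, c (x2 i) = τ (c i)) → (∃ τ : Perm (Fin 2), ∀ i, c (y1 i) = τ (c i)) →
    ∀ i, c i = c 0 := by
  decide +kernel

theorem card_A : Nat.card (WA.subgroupOf A8) = 576 := by
  have := card_even mem_s1_WA (by decide)
  rw [card_WA] at this
  exact Nat.eq_of_mul_eq_mul_left two_pos (this.trans (by norm_num))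

theorem card_B : Nat.card (WB.subgroupOf A8) = 192 := by
  have := card_even mem_s1_WB (by decide)
  rw [card_WB] at this
  exact Nat.eq_of_mul_eq_mul_left two_pos (this.trans (by norm_num))

/-- **`A₈`** -/
theorem alt_eight {π : Set ℕ} (h2 : 2 ∈ π) (h3 : 3 ∈ π) (h : DT π A8) : 5 ∈ π ∧ 7 ∈ π := by
  have hs : IsSimpleGroup A8 := alternatingGroup.isSimpleGroup (by rw [Nat.card_fin]; norm_num)
  have oA : OddPi π (WA.subgroupOf A8) := by
    have h1 := card_mul_index (WA.subgroupOf A8)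
    rw [card_A, card_A8] at h1
    exact ⟨isPi_of_card h2 h3 (a := 6) (b := 2) (by rw [card_A]; norm_num), by omega⟩
  have oB : OddPi π (WB.subgroupOf A8) := by
    have h1 := card_mul_index (WB.subgroupOf A8)
    rw [card_B, card_A8] at h1
    exact ⟨isPi_of_card h2 h3 (a := 6) (b := 1) (by rw [card_B]; norm_num), by omega⟩
  obtain ⟨H, hH, hU⟩ := h
  obtain ⟨g, hg⟩ := hU _ oA
  obtain ⟨k, hk⟩ := hU _ oB
  obtain ⟨m, hm⟩ := card_dvd_of_le hg
  rw [card_map_conj, card_A] at hm
  have hmi := card_mul_index H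
  rw [hm, card_A8] at hmi
  have h35 : m * H.index = 35 := by
    have h5 : 576 * (m * H.index) = 576 * 35 := by rw [← mul_assoc]; exact hmi
    omega
  have hcore : H.index ≠ 1 → H.normalCore = ⊥ := by
    intro hne
    rcases hs.eq_bot_or_eq_top_of_normal H.normalCore inferInstance with h | h
    · exact h
    · exfalso
      have h9 : H = ⊤ := top_le_iff.1 (h ▸ normalCore_le H)
      exact hne (index_eq_one.2 h9)
  have hm35 : m ∣ 35 := ⟨_, h35.symm⟩
  have hcases : m = 1 ∨ m = 5 ∨ m = 7 ∨ m = 35 := by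
    have hml : m ≤ 35 := Nat.le_of_dvd (by norm_num) hm35
    interval_cases m <;> simp_all (config := {decide := true})
  rcases hcases with rfl | rfl | rfl | rfl
  · exfalso
    have h7 : (WA.subgroupOf A8).map (MulAut.conj g).toMonoidHom = H := by
      apply eq_of_le_of_card_ge hg
      rw [card_map_conj, card_A, hm]
    rw [← h7] at hk
    set σ : A8 := g⁻¹ * k with hσ
    have key : ∀ b : Perm (Fin 8), b ∈ A8 → b ∈ WB → ∃ τ : Perm (Fin 2), ∀ i,
        (e4.symm (σ.1 (b i))).1 = τ (e4.symm (σ.1 i)).1 := by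
      intro b hb hbB
      have h8 := hk (conj_mem_map (g := k) (show (⟨b, hb⟩ : A8) ∈ WB.subgroupOf A8 from hbB))
      rw [mem_map_conj] at h8
      have h9 : σ * ⟨b, hb⟩ * σ⁻¹ ∈ WA.subgroupOf A8 := by
        have e : σ * ⟨b, hb⟩ * σ⁻¹ = g⁻¹ * (k * ⟨b, hb⟩ * k⁻¹) * g := by rw [hσ]; group
        rw [e]; exact h8
      obtain ⟨τ, hτ⟩ := mem_WA.1 h9
      refine ⟨τ, fun i => ?_⟩
      have := hτ (σ.1 i)
      rw [← this]
      have e : (A8.subtype (σ * ⟨b, hb⟩ * σ⁻¹)) (σ.1 i) = σ.1 (b i) := by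
        show σ.1 (b (σ.1⁻¹ (σ.1 i))) = σ.1 (b i)
        rw [show σ.1⁻¹ (σ.1 i) = i from σ.1.symm_apply_apply i]
      rw [e]
    have hc := const_of (fun i => (e4.symm (σ.1 i)).1) (key x1 even_x1 mem_x1) (key x2 even_x2 mem_x2)
      (key y1 even_y1 mem_y1)
    have h0 := hc (σ.1.symm (e4 (0, 0)))
    have h1 := hc (σ.1.symm (e4 (1, 0)))
    simp only [apply_symm_apply, symm_apply_apply] at h0 h1
    rw [← h0] at h1
    exact absurd h1 (by decide)
  · exfalso
    have hi : H.index = 7 := by omega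
    have h2 := card_dvd_factorial H (hcore (by omega))
    rw [card_A8, hi] at h2
    exact absurd (Nat.le_of_dvd (by decide) h2) (by decide)
  · exfalso
    have hi : H.index = 5 := by omega
    have h2 := card_dvd_factorial H (hcore (by omega))
    rw [card_A8, hi] at h2
    exact absurd (Nat.le_of_dvd (by decide) h2) (by decide)
  · exact ⟨hH.pi 5 (by norm_num) (by rw [hm]; norm_num), hH.pi 7 (by norm_num) (by rw [hm]; norm_num)⟩

end Cfsg.Agent.H173.PiBS
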